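import Mathlib
import Cfsg.Agent.Lib.Zsigmondy

/-!
# Arithmetic of `2 ^ n ± 1`
-/

set_option autoImplicit false

namespace Cfsg.Agent.H431.Arith

/-- primitive prime divisors of `2 ^ (2 m) - 1` -/
theorem exists_w {m : ℕ} (hm : 4 ≤ m) :
    ∃ w : ℕ, w.Prime ∧ (∀ j, w ∣ 2 ^ j - 1 ↔ 2 * m ∣ j) ∧ 9 ≤ w := by
  obtain ⟨w, hw, h1, h2, -⟩ := Lib.Zsigmondy.exists_primitive (a := 2) (n := 2 * m) le_rfl
    (by omega) (by omega) (by omega)
  refine ⟨w, hw, h1, ?_⟩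
  have h3 := hw.two_le
  have h4 := Nat.le_of_dvd (by omega) h2
  omega

theorem two_pow_sub_dvd {a b : ℕ} (h : a ∣ b) : 2 ^ a - 1 ∣ 2 ^ b - 1 := by
  obtain ⟨c, rfl⟩ := h
  rw [pow_mul]
  exact Nat.sub_one_dvd_pow_sub_one _ _

/-- `2 ^ k - 1 ∣ 2 ^ n - 1` implies `k ∣ n`. -/
theorem dvd_of_two_pow_sub_dvd {k n : ℕ} (h : 2 ^ k - 1 ∣ 2 ^ n - 1) : k ∣ n := by
  have h1 : Nat.gcd (2 ^ k - 1) (2 ^ n - 1) = 2 ^ Nat.gcd k n - 1 := Nat.pow_sub_one_gcd_pow_sub_one 2 k n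
  rw [Nat.gcd_eq_left h] at h1
  have h2 : 2 ^ k = 2 ^ Nat.gcd k n := by
    have h3 : 1 ≤ 2 ^ k := Nat.one_le_two_pow
    have h4 : 1 ≤ 2 ^ Nat.gcd k n := Nat.one_le_two_pow
    omega
  have h5 : k = Nat.gcd k n := Nat.pow_right_injective le_rfl h2
  exact Nat.gcd_eq_left_iff_dvd.1 h5.symm

/-- primes dividing `2^a 3^b 5^c 7^d` are at most 7 -/
theorem le_seven {w : ℕ} (hw : w.Prime) {a b c d : ℕ} (h : w ∣ 2 ^ a * 3 ^ b * 5 ^ c * 7 ^ d) : w ≤ 7 := by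
  have hx : ∀ {p k : ℕ}, p.Prime → w ∣ p ^ k → w = p := fun hp h =>
    (Nat.prime_dvd_prime_iff_eq hw hp).1 (hw.dvd_of_dvd_pow h)
  rcases (Nat.Prime.dvd_mul hw).1 h with h | h
  · rcases (Nat.Prime.dvd_mul hw).1 h with h | h
    · rcases (Nat.Prime.dvd_mul hw).1 h with h | h
      · have := hx Nat.prime_two h; omega
      · have := hx Nat.prime_three h; omega
    · have := hx Nat.prime_five h; omega
  · have := hx (by norm_num : Nat.Prime 7) h; omega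

/-- The Fermat prime case: `r = 2 ^ k + 1` prime and the odd primes of `(2 ^ k + 1) (2 ^ (k-1) + 1)`
are those of `2 ^ (2 m) - 1`. -/
theorem no_fermat {m k : ℕ} (hm : 4 ≤ m) (hk : 2 ≤ k) (hr : (2 ^ k + 1).Prime)
    (h1 : 2 ^ k + 1 ∣ 2 ^ (2 * m) - 1)
    (h2 : ∀ s : ℕ, s.Prime → s ≠ 2 → s ∣ 2 ^ (2 * m) - 1 → s ∣ (2 ^ k + 1) * (2 ^ (k - 1) + 1)) :
    False := by
  obtain ⟨w, hw, hwj, hw9⟩ := exists_w hm
  have hww := h2 w hw (by omega) ((hwj (2 * m)).2 dvd_rfl)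
  -- `k ∣ m`
  have hkm : k ∣ m := by
    have h3 : (2 ^ k + 1).gcd (2 ^ k - 1) = 1 := by
      have h4 : (2 ^ k + 1).gcd (2 ^ k - 1) ∣ 2 := by
        have h5 := Nat.dvd_sub (Nat.gcd_dvd_left (2 ^ k + 1) (2 ^ k - 1)) (Nat.gcd_dvd_right (2 ^ k + 1) (2 ^ k - 1))
        have h6 : 2 ^ k + 1 - (2 ^ k - 1) = 2 := by
          have : 1 ≤ 2 ^ k := Nat.one_le_two_pow
          omega
        rwa [h6] at h5
      rcases (Nat.dvd_prime Nat.prime_two).1 h4 with h5 | h5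
      · exact h5
      · exfalso
        have h6 := Nat.gcd_dvd_left (2 ^ k + 1) (2 ^ k - 1)
        rw [h5] at h6
        have h7 : 2 ∣ 2 ^ k := dvd_pow_self 2 (by omega)
        have h8 : 2 ∣ 1 := (Nat.dvd_add_right h7).1 h6
        omega
    -- the gcd of `2k` and `2m`
    have h4 : (2 ^ (2 * k) - 1).gcd (2 ^ (2 * m) - 1) = 2 ^ (Nat.gcd (2 * k) (2 * m)) - 1 :=
      Nat.pow_sub_one_gcd_pow_sub_one 2 _ _
    rw [Nat.gcd_mul_left] at h4
    have h5 : 2 ^ k + 1 ∣ 2 ^ (2 * k) - 1 := by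
      have : 2 ^ (2 * k) - 1 = (2 ^ k + 1) * (2 ^ k - 1) := by
        rw [mul_comm 2 k, pow_mul]
        exact Nat.sq_sub_sq _ 1
      rw [this]
      exact dvd_mul_right _ _
    have h6 : 2 ^ k + 1 ∣ 2 ^ (2 * Nat.gcd k m) - 1 := by
      rw [← h4]; exact Nat.dvd_gcd h5 h1
    have hg0 : 0 < Nat.gcd k m := Nat.gcd_pos_of_pos_left _ (by omega)
    have h7 : 2 ^ k + 1 ≤ 2 ^ (2 * Nat.gcd k m) - 1 := Nat.le_of_dvd (by
      have : 2 ^ 1 ≤ 2 ^ (2 * Nat.gcd k m) := Nat.pow_le_pow_right (by norm_num) (by omega)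
      omega) h6
    have h8 : k < 2 * Nat.gcd k m := by
      by_contra hcon
      push Not at hcon
      have : 2 ^ (2 * Nat.gcd k m) ≤ 2 ^ k := Nat.pow_le_pow_right (by norm_num) hcon
      have h9 : 1 ≤ 2 ^ k := Nat.one_le_two_pow
      omega
    obtain ⟨c, hc⟩ := Nat.gcd_dvd_left k m
    have hc1 : c = 1 := by
      have hc2 : c < 2 := by
        by_contra hcon
        push Not at hcon
        have : 2 * Nat.gcd k m ≤ k := by
          calc 2 * Nat.gcd k m ≤ c * Nat.gcd k m := Nat.mul_le_mul_right _ hcon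
            _ = k := by rw [mul_comm]; exact hc.symm
        omega
      have hc0 : c ≠ 0 := by
        rintro rfl
        rw [mul_zero] at hc
        omega
      omega
    rw [hc1, mul_one] at hc
    exact Nat.gcd_eq_left_iff_dvd.1 hc.symm
  have hmk : k ≤ m := Nat.le_of_dvd (by omega) hkm
  rcases (Nat.Prime.dvd_mul hw).1 hww with h3 | h3
  · -- `k = m`
    have h4 : w ∣ 2 ^ (2 * k) - 1 := by
      have : 2 ^ (2 * k) - 1 = (2 ^ k + 1) * (2 ^ k - 1) := by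
        rw [mul_comm 2 k, pow_mul]
        exact Nat.sq_sub_sq _ 1
      rw [this]
      exact Dvd.dvd.mul_right h3 _
    have h5 := (hwj _).1 h4
    have h6 := Nat.le_of_dvd (by omega) h5
    have hkm' : k = m := by omega
    subst hkm'
    -- all primes of `2 ^ k - 1` are 3
    have h7 : ∀ s : ℕ, s.Prime → s ∣ 2 ^ k - 1 → s = 3 := by
      intro s hs hsk
      have hs2 : s ≠ 2 := by
        rintro rfl
        have h8 : 2 ∣ 2 ^ k := dvd_pow_self 2 (by omega)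
        have : 1 ≤ 2 ^ k := Nat.one_le_two_pow
        omega
      have h8 := h2 s hs hs2 (hsk.trans (two_pow_sub_dvd (Dvd.intro_left 2 rfl)))
      rcases (Nat.Prime.dvd_mul hs).1 h8 with h9 | h9
      · exfalso
        apply hs2
        have h10 := Nat.dvd_sub h9 hsk
        have h11 : 2 ^ k + 1 - (2 ^ k - 1) = 2 := by
          have : 1 ≤ 2 ^ k := Nat.one_le_two_pow
          omega
        rw [h11] at h10
        exact (Nat.prime_dvd_prime_iff_eq hs Nat.prime_two).1 h10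
      · have h10 := Nat.dvd_sub (Dvd.dvd.mul_left h9 2) hsk
        have h11 : 2 * (2 ^ (k - 1) + 1) - (2 ^ k - 1) = 3 := by
          obtain ⟨j, rfl⟩ : ∃ j, k = j + 1 := ⟨k - 1, by omega⟩
          rw [Nat.add_sub_cancel, pow_succ]
          have : 1 ≤ 2 ^ j := Nat.one_le_two_pow
          omega
        rw [h11] at h10
        exact (Nat.prime_dvd_prime_iff_eq hs Nat.prime_three).1 h10
    have h8 : 2 ^ k - 1 ≠ 0 := by
      have : 2 ^ 1 ≤ 2 ^ k := Nat.pow_le_pow_right (by norm_num) (by omega)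
      omega
    have h9 := Nat.eq_prime_pow_of_unique_prime_dvd h8 (fun {d} hd h => h7 d hd h)
    -- modulo 8
    have h10 : ∀ j : ℕ, 3 ^ j % 8 = 1 ∨ 3 ^ j % 8 = 3 := by
      intro j
      induction j with
      | zero => left; norm_num
      | succ j ih =>
        rw [pow_succ, Nat.mul_mod]
        rcases ih with h | h <;> rw [h] <;> norm_num
    have h11 := h10 ((2 ^ k - 1).primeFactorsList.length)
    rw [← h9] at h11
    have h12 : 8 ∣ 2 ^ k := by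
      have : (8 : ℕ) = 2 ^ 3 := by norm_num
      rw [this]
      exact pow_dvd_pow 2 (by omega)
    omega
  · have h4 : w ∣ 2 ^ (2 * (k - 1)) - 1 := by
      have : 2 ^ (2 * (k - 1)) - 1 = (2 ^ (k - 1) + 1) * (2 ^ (k - 1) - 1) := by
        rw [mul_comm 2 (k - 1), pow_mul]
        exact Nat.sq_sub_sq _ 1
      rw [this]
      exact Dvd.dvd.mul_right h3 _
    have h5 := (hwj _).1 h4
    have h6 := Nat.le_of_dvd (by omega) h5
    omega

/-- The Mersenne prime case. -/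
theorem no_mersenne {m k : ℕ} (hm : 4 ≤ m) (hk : 2 ≤ k) (hr : (2 ^ k - 1).Prime)
    (h1 : 2 ^ k - 1 ∣ 2 ^ (2 * m) - 1)
    (h2 : ∀ s : ℕ, s.Prime → s ≠ 2 → s ∣ 2 ^ (2 * m) - 1 → s ∣ (2 ^ k - 1) * (2 ^ (k - 1) - 1)) :
    False := by
  obtain ⟨w, hw, hwj, hw9⟩ := exists_w hm
  have hww := h2 w hw (by omega) ((hwj (2 * m)).2 dvd_rfl)
  have hkm : k ∣ 2 * m := dvd_of_two_pow_sub_dvd h1
  have hkm' := Nat.le_of_dvd (by omega) hkm
  rcases (Nat.Prime.dvd_mul hw).1 hww with h3 | h3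
  · have h4 := Nat.le_of_dvd (by omega) ((hwj _).1 h3)
    have h5 : k = 2 * m := by omega
    subst h5
    have h6 : 2 ^ (2 * m) - 1 = (2 ^ m + 1) * (2 ^ m - 1) := by
      rw [mul_comm 2 m, pow_mul]
      exact Nat.sq_sub_sq _ 1
    rw [h6] at hr
    have h7 : 2 ^ 4 ≤ 2 ^ m := Nat.pow_le_pow_right (by norm_num) hm
    rcases Nat.prime_mul_iff.1 hr with ⟨-, h⟩ | ⟨-, h⟩ <;> omega
  · have h4 := Nat.le_of_dvd (by omega) ((hwj _).1 h3)
    omega

end Cfsg.Agent.H431.Arith
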