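import Mathlib
import Cfsg.Agent.Lib.Cores
import Cfsg.Agent.Lib.SubnormalJoin
import Cfsg.Agent.Lib.MinNormalNonabelian
import Cfsg.Agent.LieExceptional.CITBasic

/-!
# Non-soluble groups in which centralisers of involutions are 2-groups

If `G` is a finite non-soluble group with this property and `O₂(G) = 1`, then `G` has a simple
non-abelian normal subgroup with trivial centraliser.
-/

set_option autoImplicit false

universe u

namespace Cfsg.Agent.H431.CIT

open Subgroup Cfsg.Agent.LieExceptional.CITDefs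

variable {G : Type u} [Group G]

/-- A group without elements of order `2 s`, `s` an odd prime, is a CIT-group. -/
theorem isCIT_of_no_order [Finite G]
    (h : ∀ s : ℕ, s.Prime → s ≠ 2 → ¬ ∃ y : G, orderOf y = 2 * s) : IsCIT G := by
  intro t ht
  have h1 : ∀ {d : ℕ}, d.Prime → d ∣ Nat.card (centralizer ({t} : Set G)) → d = 2 := by
    intro d hd hdv
    by_contra hd2
    have : Fact d.Prime := ⟨hd⟩
    obtain ⟨y, hy⟩ := exists_prime_orderOf_dvd_card' d hdv
    have hy' : orderOf (y : G) = d := by rw [Subgroup.orderOf_coe]; exact hy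
    have hc : Commute t (y : G) := by
      have := y.2
      rw [mem_centralizer_singleton_iff] at this
      exact this.symm
    refine h d hd hd2 ⟨t * y, ?_⟩
    rw [hc.orderOf_mul_eq_mul_orderOf_of_coprime, ht, hy']
    rw [ht, hy']
    exact (Nat.coprime_primes Nat.prime_two hd).2 (Ne.symm hd2)
  have h2 : Nat.card (centralizer ({t} : Set G)) ≠ 0 := Nat.card_pos.ne'
  have h3 := Nat.eq_prime_pow_of_unique_prime_dvd h2 h1
  exact IsPGroup.of_card h3

theorem odd_card_of_coprime {H : Type*} [Group H] [Finite H] (h : ¬ 2 ∣ Nat.card H) : Odd (Nat.card H) := by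
  rw [← Nat.not_even_iff_odd, even_iff_two_dvd]
  exact h

/-- a 2-subgroup of odd order is trivial -/
theorem eq_bot_of_odd {H : Subgroup G} [Finite H] (h2 : IsPGroup 2 H) (ho : Odd (Nat.card H)) : H = ⊥ := by
  have : Fact (Nat.Prime 2) := ⟨Nat.prime_two⟩
  obtain ⟨n, hn⟩ := IsPGroup.iff_card.1 h2
  rw [hn] at ho
  have : n = 0 := by
    by_contra hn0
    exact (Nat.not_even_iff_odd.2 ho) ((Nat.even_pow' hn0).2 even_two)
  rw [this, pow_zero] at hn
  exact Subgroup.card_eq_one.1 hn

/-- An involution of a CIT group inverts a normal subgroup of odd order. -/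
theorem inverts [Finite G] (hG : IsCIT G) {N : Subgroup G} [hN : N.Normal] (hodd : Odd (Nat.card N))
    {z : G} (hz : orderOf z = 2) : ∀ n ∈ N, z * n * z⁻¹ = n⁻¹ := by
  have hzz : z * z = 1 := by
    have := pow_orderOf_eq_one z
    rwa [hz, pow_two] at this
  have hzi : z⁻¹ = z := inv_eq_of_mul_eq_one_left hzz
  let φ : N →* N := (MulAut.conjNormal z : MulAut N).toMonoidHom
  have hφ : ∀ n : N, ((φ n : N) : G) = z * n * z⁻¹ := fun n => rfl
  have hff : MonoidHom.FixedPointFree (φ : N → N) := by
    intro n hn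
    have h1 : z * (n : G) * z⁻¹ = n := by
      rw [← hφ, hn]
    have h2 : (n : G) ∈ centralizer ({z} : Set G) := by
      rw [mem_centralizer_singleton_iff]
      calc (n : G) * z = (z * n * z⁻¹) * z := by rw [h1]
        _ = z * n := by group
    obtain ⟨k, hk⟩ := hG z hz ⟨n, h2⟩
    have hk' : (n : G) ^ 2 ^ k = 1 := congrArg Subtype.val hk
    have h3 : orderOf n ∣ 2 ^ k := by
      rw [← Subgroup.orderOf_coe]
      exact orderOf_dvd_of_pow_eq_one hk'
    have h4 : orderOf n ∣ Nat.card N := orderOf_dvd_natCard n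
    have h5 : Nat.Coprime (2 ^ k) (Nat.card N) := Nat.Coprime.pow_left k hodd.coprime_two_left
    exact orderOf_eq_one_iff.1 (Nat.eq_one_of_dvd_coprimes h5 h3 h4)
  have hinv : Function.Involutive φ := by
    intro n
    apply Subtype.ext
    rw [hφ, hφ, hzi]
    calc z * (z * (n : G) * z) * z = (z * z) * n * (z * z) := by group
      _ = n := by rw [hzz]; group
  intro n hn
  have h1 := hff.coe_eq_inv_of_involutive hinv
  have h2 : φ ⟨n, hn⟩ = (⟨n, hn⟩ : N)⁻¹ := congrFun h1 ⟨n, hn⟩
  have h3 := congrArg Subtype.val h2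
  rw [hφ] at h3
  exact h3

/-- A CIT-group of even order with a non-trivial normal subgroup of odd order is soluble. -/
theorem solvable_of_odd [Finite G]
    (FT : ∀ (K : Type u) [Group K] [Finite K], Odd (Nat.card K) → Group.IsSolvable K)
    (hG : IsCIT G) {N : Subgroup G} [hN : N.Normal] (hodd : Odd (Nat.card N)) (hne : N ≠ ⊥)
    : Group.IsSolvable G := by
  by_cases hev : 2 ∣ Nat.card G
  swap
  · exact FT G (odd_card_of_coprime hev)
  have : Fact (Nat.Prime 2) := ⟨Nat.prime_two⟩
  obtain ⟨z, hz⟩ := exists_prime_orderOf_dvd_card' 2 hev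
  have hzz : z * z = 1 := by
    have := pow_orderOf_eq_one z
    rwa [hz, pow_two] at this
  have hzi : z⁻¹ = z := inv_eq_of_mul_eq_one_left hzz
  -- the centraliser of `N`
  set C : Subgroup G := centralizer (N : Set G) with hC
  have hCn : C.Normal := Subgroup.normal_centralizer
  have hCodd : Odd (Nat.card C) := by
    apply odd_card_of_coprime
    intro h2
    obtain ⟨t, ht⟩ := exists_prime_orderOf_dvd_card' 2 h2
    have ht' : orderOf (t : G) = 2 := by rw [Subgroup.orderOf_coe]; exact ht
    have h3 : N ≤ centralizer ({(t : G)} : Set G) := by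
      intro n hn
      rw [mem_centralizer_singleton_iff]
      exact mem_centralizer_iff.1 t.2 n hn
    apply hne
    refine eq_bot_of_odd ?_ hodd
    exact (hG _ ht').to_le h3
  -- every element is a product of an element of `C` and one of `C(z)`
  have hfac : ∀ g : G, ∃ d ∈ C, d⁻¹ * g ∈ centralizer ({z} : Set G) := by
    intro g
    set w : G := g * z * g⁻¹ with hw
    have hwo : orderOf w = 2 := by
      have h1 : MulAut.conj g z = w := rfl
      rw [← h1, MulEquiv.orderOf_eq, hz]
    have hww : w * w = 1 := by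
      have := pow_orderOf_eq_one w
      rwa [hwo, pow_two] at this
    set c : G := z * w with hc
    have hcC : c ∈ C := by
      rw [hC, mem_centralizer_iff]
      intro n hn
      have h1 := inverts hG hodd hwo n hn
      have h2 := inverts hG hodd hz n⁻¹ (N.inv_mem hn)
      have h3 : c * n * c⁻¹ = n := by
        calc c * n * c⁻¹ = z * (w * n * w⁻¹) * z⁻¹ := by rw [hc]; group
          _ = z * n⁻¹ * z⁻¹ := by rw [h1]
          _ = n := by rw [h2, inv_inv]
      calc n * c = (c * n * c⁻¹) * c := by rw [h3]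
        _ = c * n := by group
    have hco : Odd (orderOf c) := by
      have h1 : orderOf c ∣ Nat.card C := by
        have := orderOf_dvd_natCard (⟨c, hcC⟩ : C)
        rwa [Subgroup.orderOf_mk] at this
      exact Odd.of_dvd_nat hCodd h1
    obtain ⟨k, hk⟩ := hco
    have hzc : z * c * z⁻¹ = c⁻¹ := by
      rw [hc, mul_inv_rev, hzi, inv_eq_of_mul_eq_one_left hww]
      calc z * (z * w) * z = (z * z) * w * z := by group
        _ = w * z := by rw [hzz, one_mul]
    have hzck : ∀ j : ℕ, z * c ^ j * z⁻¹ = (c ^ j)⁻¹ := by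
      intro j
      have h1 : (z * c * z⁻¹) ^ j = z * c ^ j * z⁻¹ := conj_pow
      rw [← h1, hzc, inv_pow]
    have hpow : c ^ (2 * k + 1) = 1 := by rw [← hk]; exact pow_orderOf_eq_one c
    have hwz : w = z * c := by rw [hc, ← mul_assoc, hzz, one_mul]
    -- `c ^ k` conjugates `z` to `w`
    have hconj : c ^ k * z * (c ^ k)⁻¹ = w := by
      have h1 : z * (c ^ k)⁻¹ = c ^ k * z := by
        have := hzck k
        calc z * (c ^ k)⁻¹ = z * (z * c ^ k * z⁻¹) := by rw [this]
          _ = (z * z) * c ^ k * z⁻¹ := by group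
          _ = c ^ k * z := by rw [hzz, one_mul, hzi]
      have h2 : z * c = c⁻¹ * z := by
        calc z * c = (z * c * z⁻¹) * z := by group
          _ = c⁻¹ * z := by rw [hzc]
      rw [mul_assoc, h1, hwz, h2, ← mul_assoc, ← pow_add]
      congr 1
      rw [eq_inv_iff_mul_eq_one, ← pow_succ]
      rw [← hpow]
      congr 1
      ring
    refine ⟨c ^ k, C.pow_mem hcC k, ?_⟩
    rw [mem_centralizer_singleton_iff]
    have h3 : g * z = c ^ k * z * (c ^ k)⁻¹ * g := by
      rw [hconj, hw]; group
    calc (c ^ k)⁻¹ * g * z = (c ^ k)⁻¹ * (g * z) := by group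
      _ = (c ^ k)⁻¹ * (c ^ k * z * (c ^ k)⁻¹ * g) := by rw [h3]
      _ = z * ((c ^ k)⁻¹ * g) := by group
  -- solubility
  have hCs : Group.IsSolvable C := FT C hCodd
  have hZs : Group.IsSolvable (centralizer ({z} : Set G)) := by
    have h2 := hG z hz
    have : Group.IsNilpotent (centralizer ({z} : Set G)) := h2.isNilpotent
    infer_instance
  have hQs : Group.IsSolvable (G ⧸ C) := by
    let f : centralizer ({z} : Set G) →* G ⧸ C :=
      (QuotientGroup.mk' C).comp (centralizer ({z} : Set G)).subtype
    have hf : Function.Surjective f := by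
      intro x
      obtain ⟨g, rfl⟩ := QuotientGroup.mk_surjective x
      obtain ⟨d, hd, hdg⟩ := hfac g
      refine ⟨⟨d⁻¹ * g, hdg⟩, ?_⟩
      change (QuotientGroup.mk (d⁻¹ * g) : G ⧸ C) = QuotientGroup.mk g
      rw [QuotientGroup.eq]
      have : (d⁻¹ * g)⁻¹ * g = g⁻¹ * d * (g⁻¹)⁻¹ := by group
      rw [this]
      exact hCn.conj_mem d hd g⁻¹
    exact Group.isSolvable_of_surjective hf
  exact (Group.isSolvable_iff_subgroup_quotient C).2 ⟨hCs, hQs⟩

/-- **The socle of a non-soluble CIT-group.** -/
theorem exists_simple [Finite G]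
    (FT : ∀ (K : Type u) [Group K] [Finite K], Odd (Nat.card K) → Group.IsSolvable K)
    (hG : IsCIT G) (hns : ¬ Group.IsSolvable G) (hO : Cfsg.pCore 2 G = ⊥) :
    ∃ S : Subgroup G, S.Normal ∧ IsSimpleGroup S ∧ (∃ a b : S, a * b ≠ b * a) ∧
      centralizer (S : Set G) = ⊥ := by
  have : Fact (Nat.Prime 2) := ⟨Nat.prime_two⟩
  have hnt : Nontrivial G := by
    by_contra h
    rw [not_nontrivial_iff_subsingleton] at h
    exact hns inferInstance
  obtain ⟨N, hN, hNb, hmin⟩ := Lib.SubnormalJoin.exists_minimal_normal G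
  by_cases hab : ∀ x ∈ N, ∀ y ∈ N, Commute x y
  · exfalso
    obtain ⟨p, hp, hpN, -⟩ := Lib.MinNormalNonabelian.abelian_structure N hNb hmin hab
    by_cases hp2 : p = 2
    · subst hp2
      apply hNb
      rw [eq_bot_iff, ← hO]
      exact Lib.Cores.le_pCore hN hpN
    · have hodd : Odd (Nat.card N) := by
        have : Fact p.Prime := ⟨hp⟩
        obtain ⟨n, hn⟩ := IsPGroup.iff_card.1 hpN
        rw [hn]
        exact (hp.odd_of_ne_two hp2).pow
      exact hns (solvable_of_odd FT hG hodd hNb)
  · obtain ⟨⟨T, hT⟩, -, hsup, hsimp, hcent, -⟩ :=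
      Lib.MinNormalNonabelian.nonabelian_structure N hmin hab
    have hsT : IsSimpleGroup T := hsimp T hT
    have hTna : ∀ T' ∈ Lib.MinNormalNonabelian.minSet N, ¬ Group.IsSolvable T' := by
      intro T' hT' hs
      have := hsimp T' hT'
      have hcomm := IsSimpleGroup.comm_iff_isSolvable.2 hs
      apply hT'.2.1
      rw [eq_bot_iff]
      intro x hx
      rw [mem_bot]
      exact hcent T' hT' x hx fun t ht => congrArg Subtype.val (hcomm ⟨x, hx⟩ ⟨t, ht⟩)
    -- an involution in `T`
    have hTe : 2 ∣ Nat.card T := by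
      by_contra h
      exact hTna T hT (FT T (odd_card_of_coprime h))
    obtain ⟨t, ht⟩ := exists_prime_orderOf_dvd_card' 2 hTe
    have ht' : orderOf (t : G) = 2 := by rw [Subgroup.orderOf_coe]; exact ht
    have huniq : ∀ T' ∈ Lib.MinNormalNonabelian.minSet N, T' = T := by
      intro T' hT'
      by_contra hne
      have hdisj : Disjoint T' T := by
        rw [disjoint_iff]
        have h1 := hT'.2.2.2 (T' ⊓ T) inf_le_left (Lib.MinNormal.le_normalizer_inf hT'.2.2.1 hT.2.2.1)
        rcases h1 with h1 | h1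
        · exact h1
        · have h2 := hT.2.2.2 (T' ⊓ T) inf_le_right (Lib.MinNormal.le_normalizer_inf hT'.2.2.1 hT.2.2.1)
          rcases h2 with h2 | h2
          · exact h2
          · exact absurd (h1.symm.trans h2) hne
      have h3 : T' ≤ centralizer ({(t : G)} : Set G) := by
        intro x hx
        rw [mem_centralizer_singleton_iff]
        exact (Lib.MinNormal.commute_of_disjoint (hT'.1.trans hT.2.2.1) (hT.1.trans hT'.2.2.1) hdisj
          hx t.2).eq
      have h4 : IsPGroup 2 T' := (hG _ ht').to_le h3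
      have : Group.IsNilpotent T' := h4.isNilpotent
      exact hTna T' hT' inferInstance
    have hNT : N = T := by
      rw [← hsup]
      apply le_antisymm
      · exact sSup_le fun T' hT' => (huniq T' hT').le
      · exact le_sSup hT
    subst hNT
    refine ⟨N, hN, hsT, ?_, ?_⟩
    · by_contra hcon
      push Not at hcon
      apply hab
      intro x hx y hy
      exact congrArg Subtype.val (hcon ⟨x, hx⟩ ⟨y, hy⟩)
    · rw [eq_bot_iff, ← hO]
      have : (centralizer (N : Set G)).Normal := Subgroup.normal_centralizer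
      refine Lib.Cores.le_pCore this ?_
      refine (hG _ ht').to_le ?_
      intro x hx
      rw [mem_centralizer_singleton_iff]
      exact (mem_centralizer_iff.1 hx t t.2).symm

end Cfsg.Agent.H431.CIT
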