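import Mathlib
import Cfsg.Agent.H431.CIT
import Cfsg.Agent.Lib.AutSL2
import Cfsg.Agent.Lib.AutSL2Out

/-!
# The simple normal subgroup of a CIT-group

* `dvd_card_of_one_class`: if the involutions of the normal subgroup `S` form one `S`-class, then
  `G / S` is a 2-group.
* `eq_top_of_psl_two_even`: if `S ≅ PSL(2, 2^n)` is normal in the CIT-group `G`, then `S = G`.
-/

set_option autoImplicit false

universe u

namespace Cfsg.Agent.H431.CIT

open Subgroup Cfsg.Agent.LieExceptional.CITDefs Cfsg.Agent.Lib.SL2Mat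

variable {G : Type u} [Group G]

theorem isCIT_subgroup (hG : IsCIT G) (S : Subgroup G) : IsCIT S := by
  intro t ht
  have ht' : orderOf (t : G) = 2 := by rw [Subgroup.orderOf_coe]; exact ht
  rintro ⟨x, hx⟩
  have hx' : (x : G) ∈ centralizer ({(t : G)} : Set G) := by
    rw [mem_centralizer_singleton_iff] at hx ⊢
    exact congrArg Subtype.val hx
  obtain ⟨k, hk⟩ := hG _ ht' ⟨x, hx'⟩
  refine ⟨k, Subtype.ext (Subtype.ext ?_)⟩
  have := congrArg Subtype.val hk
  simpa using this

/-- Frattini argument: `G / S` is a 2-group when the involutions of `S` form one class. -/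
theorem isPGroup_quotient_of_one_class [Finite G] (hG : IsCIT G) (S : Subgroup G) [hS : S.Normal]
    {t : G} (ht : t ∈ S) (ht2 : orderOf t = 2)
    (hcl : ∀ s ∈ S, orderOf s = 2 → ∃ x ∈ S, x * t * x⁻¹ = s) : IsPGroup 2 (G ⧸ S) := by
  have hfac : ∀ g : G, ∃ x ∈ S, x⁻¹ * g ∈ centralizer ({t} : Set G) := by
    intro g
    have h1 : g * t * g⁻¹ ∈ S := hS.conj_mem t ht g
    have h2 : orderOf (g * t * g⁻¹) = 2 := by
      have : MulAut.conj g t = g * t * g⁻¹ := rfl
      rw [← this, MulEquiv.orderOf_eq, ht2]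
    obtain ⟨x, hx, hxt⟩ := hcl _ h1 h2
    refine ⟨x, hx, ?_⟩
    rw [mem_centralizer_singleton_iff]
    have h3 : x * t * x⁻¹ * g = g * t := by rw [hxt]; group
    calc x⁻¹ * g * t = x⁻¹ * (g * t) := by group
      _ = x⁻¹ * (x * t * x⁻¹ * g) := by rw [h3]
      _ = t * (x⁻¹ * g) := by group
  let f : centralizer ({t} : Set G) →* G ⧸ S :=
    (QuotientGroup.mk' S).comp (centralizer ({t} : Set G)).subtype
  have hf : Function.Surjective f := by
    intro y
    obtain ⟨g, rfl⟩ := QuotientGroup.mk_surjective y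
    obtain ⟨x, hx, hxg⟩ := hfac g
    refine ⟨⟨x⁻¹ * g, hxg⟩, ?_⟩
    change (QuotientGroup.mk (x⁻¹ * g) : G ⧸ S) = QuotientGroup.mk g
    rw [QuotientGroup.eq]
    have : (x⁻¹ * g)⁻¹ * g = g⁻¹ * x * (g⁻¹)⁻¹ := by group
    rw [this]
    exact hS.conj_mem x hx g⁻¹
  exact (hG t ht2).of_surjective f hf

theorem dvd_card_of_one_class [Finite G] (hG : IsCIT G) (S : Subgroup G) [hS : S.Normal]
    {t : G} (ht : t ∈ S) (ht2 : orderOf t = 2)
    (hcl : ∀ s ∈ S, orderOf s = 2 → ∃ x ∈ S, x * t * x⁻¹ = s) {r : ℕ} (hr : r.Prime)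
    (hr2 : r ≠ 2) (hrG : r ∣ Nat.card G) : r ∣ Nat.card S := by
  have : Fact (Nat.Prime 2) := ⟨Nat.prime_two⟩
  obtain ⟨n, hn⟩ := IsPGroup.iff_card.1 (isPGroup_quotient_of_one_class hG S ht ht2 hcl)
  rw [Subgroup.card_eq_card_quotient_mul_card_subgroup S, hn] at hrG
  rcases (Nat.Prime.dvd_mul hr).1 hrG with h | h
  · exact absurd ((Nat.prime_dvd_prime_iff_eq hr Nat.prime_two).1 (hr.dvd_of_dvd_pow h)) hr2
  · exact h

section psl

variable {F : Type*} [Field F]

/-- the element of order 3 with entries in the prime field -/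
def three (F : Type*) [Field F] : Matrix.SpecialLinearGroup (Fin 2) F :=
  mk 0 1 (-1) (-1) (by ring)

theorem three_pow : three F ^ 3 = 1 := by
  rw [pow_succ, pow_two]
  refine ext_ent ?_ ?_ ?_ ?_ <;> simp [three, ent_mul]

theorem three_ne_one : three F ≠ 1 := by
  intro h
  have := congrArg (fun x : Matrix.SpecialLinearGroup (Fin 2) F => ent x 0 1) h
  simp [three] at this

theorem fieldAut_three (σ : F ≃+* F) : fieldAut σ (three F) = three F := by
  refine ext_ent ?_ ?_ ?_ ?_ <;> simp [three]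

theorem fieldAut_up_one (σ : F ≃+* F) : fieldAut σ (up 1) = (up 1 : Matrix.SpecialLinearGroup (Fin 2) F) := by
  rw [fieldAut_up, map_one]

/-- A CIT-group with a normal subgroup isomorphic to `PSL(2, 2^n)` is that subgroup. -/
theorem eq_top_of_psl_two_even [Finite G] (hG : IsCIT G) (S : Subgroup G) [hS : S.Normal]
    [Finite F] [CharP F 2]
    (e : S ≃* Matrix.ProjectiveSpecialLinearGroup (Fin 2) F) : S = ⊤ := by
  let π : Matrix.SpecialLinearGroup (Fin 2) F →* S := e.symm.toMonoidHom.comp (QuotientGroup.mk' _)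
  have hπ : Function.Surjective π := e.symm.surjective.comp (QuotientGroup.mk'_surjective _)
  have hk : π.ker ≤ Subgroup.center (Matrix.SpecialLinearGroup (Fin 2) F) := by
    intro x hx
    have h1 : e.symm (QuotientGroup.mk' _ x) = 1 := hx
    rw [map_eq_one_iff e.symm e.symm.injective] at h1
    exact (QuotientGroup.eq_one_iff x).1 h1
  -- the two elements
  have h3 : π (three F) ^ 3 = 1 := by rw [← map_pow, three_pow, map_one]
  have h2 : π (up 1) ^ 2 = 1 := by
    rw [← map_pow]
    have : (up 1 : Matrix.SpecialLinearGroup (Fin 2) F) ^ 2 = 1 := by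
      rw [pow_two, up_mul]
      have : (1 : F) + 1 = 0 := CharTwo.add_self_eq_zero 1
      rw [this, up_zero]
    rw [this, map_one]
  have hcomm : three F * up 1 ≠ up 1 * three F := by
    intro h
    have := congrArg (fun x : Matrix.SpecialLinearGroup (Fin 2) F => ent x 0 0) h
    simp [three, ent_mul] at this
  have hnc : ∀ x ∈ Subgroup.center (Matrix.SpecialLinearGroup (Fin 2) F), x = 1 := by
    intro x hx
    rw [Matrix.SpecialLinearGroup.mem_center_iff] at hx
    obtain ⟨r, hr, h⟩ := hx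
    have hr1 : r = 1 := by
      have h4 : (r - 1) ^ 2 = 0 := by
        have h5 : r ^ 2 = 1 := by simpa using hr
        have h6 : (2 : F) = 0 := CharTwo.two_eq_zero
        linear_combination h5 - (r - 1) * h6
      have h7 : r - 1 = 0 := pow_eq_zero_iff (two_ne_zero) |>.1 h4
      linear_combination h7
    apply Subtype.ext
    rw [← h, hr1]
    simp
  have hinj : Function.Injective π := by
    rw [injective_iff_map_eq_one]
    intro x hx
    exact hnc x (hk hx)
  have ho3 : orderOf (π (three F)) = 3 := by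
    have : Fact (Nat.Prime 3) := ⟨Nat.prime_three⟩
    exact orderOf_eq_prime h3 fun h => three_ne_one (hinj (by rw [h, map_one]))
  have ho2 : orderOf (π (up 1)) = 2 := by
    have : Fact (Nat.Prime 2) := ⟨Nat.prime_two⟩
    refine orderOf_eq_prime h2 fun h => ?_
    have h4 : (up 1 : Matrix.SpecialLinearGroup (Fin 2) F) = 1 := hinj (by rw [h, map_one])
    apply hcomm
    rw [h4, one_mul, mul_one]
  rw [eq_top_iff]
  intro g _
  obtain ⟨A, σ, hα⟩ := Lib.AutSL2.exists_gl_ringEquiv π hπ hk (MulAut.conjNormal g)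
  obtain ⟨d, hd⟩ : ∃ d : F, A.1.det = d ^ 2 := by
    have : Fintype F := Fintype.ofFinite F
    obtain ⟨d, hd⟩ := FiniteField.isSquare_of_char_two (F := F) (ringChar.eq F 2).symm.symm A.1.det
    exact ⟨d, by rw [hd, pow_two]⟩
  have hdet : A.1.det ≠ 0 := (Matrix.GeneralLinearGroup.det A).ne_zero
  obtain ⟨s, hs⟩ := Lib.AutSL2Out.conjGL_of_det_sq A d (by rintro rfl; exact hdet (by rw [hd]; simp)) hd
  set g' : G := (π s : G)⁻¹ * g with hg'
  have hfix : ∀ x : Matrix.SpecialLinearGroup (Fin 2) F, fieldAut σ x = x → g' * (π x : G) = (π x : G) * g' := by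
    intro x hx
    have h4 := hα x
    rw [hx, hs, map_mul, map_mul, map_inv] at h4
    have h5 : g * (π x : G) * g⁻¹ = (π s : G) * (π x : G) * (π s : G)⁻¹ := congrArg Subtype.val h4
    rw [hg']
    calc (π s : G)⁻¹ * g * (π x : G) = (π s : G)⁻¹ * (g * (π x : G) * g⁻¹) * g := by group
      _ = (π s : G)⁻¹ * ((π s : G) * (π x : G) * (π s : G)⁻¹) * g := by rw [h5]
      _ = (π x : G) * ((π s : G)⁻¹ * g) := by group
  have hc2 := hfix (up 1) (fieldAut_up_one σ)
  have hc3 := hfix (three F) (fieldAut_three σ)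
  obtain ⟨k, hk2⟩ := hG (π (up 1) : G) (by rw [Subgroup.orderOf_coe]; exact ho2)
    ⟨g', by rw [mem_centralizer_singleton_iff]; exact hc2⟩
  have hk2' : g' ^ 2 ^ k = 1 := congrArg Subtype.val hk2
  have hg1 : g' = 1 := by
    refine LieExceptional.CITBasic.fpf hG (d := (π (three F) : G)) ?_ ?_ hk2' hc3.symm
    · rw [Subgroup.orderOf_coe, ho3]; decide
    · intro h
      have : orderOf (π (three F)) = 1 := by
        rw [← Subgroup.orderOf_coe, h, orderOf_one]
      omega
  have : g = (π s : G) := by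
    rw [hg', inv_mul_eq_one] at hg1
    exact hg1.symm
  rw [this]
  exact (π s).2

end psl

end Cfsg.Agent.H431.CIT
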