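import Mathlib
import Cfsg.Agent.H431.CITSocle
import Cfsg.Agent.H431.Lucido
import Cfsg.Agent.S0205
import Cfsg.Agent.ThreePrime.Main
import Cfsg.Agent.OddCyclic.FFSz

/-!
# Groups whose prime graph has the isolated vertex 2

`data`: if the finite group `G` has no element of order `2 s` (`s` an odd prime) and has three
pairwise non-adjacent primes `2, r, s`, then `G / O₂(G)` has a simple normal subgroup with trivial
centraliser.
-/

set_option autoImplicit false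

universe u

namespace Cfsg.Agent.H431.CIT

open Subgroup Cfsg.Agent.LieExceptional.CITDefs

variable {G : Type u} [Group G] [Finite G]

theorem dvd_quotient_pCore {r : ℕ} (hr : r.Prime) (hr2 : r ≠ 2) :
    haveI := Lib.Cores.pCore_normal (G := G) 2
    r ∣ Nat.card (G ⧸ Cfsg.pCore 2 G) ↔ r ∣ Nat.card G := by
  have := Lib.Cores.pCore_normal (G := G) 2
  have : Fact (Nat.Prime 2) := ⟨Nat.prime_two⟩
  obtain ⟨n, hn⟩ := IsPGroup.iff_card.1 (Lib.Cores.pCore_isPGroup (G := G) 2)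
  rw [Subgroup.card_eq_card_quotient_mul_card_subgroup (Cfsg.pCore 2 G), hn]
  constructor
  · intro h; exact Dvd.dvd.mul_right h _
  · intro h
    rcases (Nat.Prime.dvd_mul hr).1 h with h | h
    · exact h
    · exact absurd ((Nat.prime_dvd_prime_iff_eq hr Nat.prime_two).1 (hr.dvd_of_dvd_pow h)) hr2

/-- The socle of `G / O₂(G)`. -/
theorem data (h2 : ∀ s : ℕ, s.Prime → s ≠ 2 → ¬ ∃ y : G, orderOf y = 2 * s) {r s : ℕ}
    (hr : r.Prime) (hs : s.Prime) (hr2 : r ≠ 2) (hs2 : s ≠ 2) (hrs : r ≠ s) (h2G : 2 ∣ Nat.card G)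
    (hrG : r ∣ Nat.card G) (hsG : s ∣ Nat.card G) (hno : ¬ ∃ y : G, orderOf y = r * s) :
    haveI := Lib.Cores.pCore_normal (G := G) 2
    IsCIT (G ⧸ Cfsg.pCore 2 G) ∧
    ∃ S : Subgroup (G ⧸ Cfsg.pCore 2 G), S.Normal ∧ IsSimpleGroup S ∧ (∃ a b : S, a * b ≠ b * a) ∧
      centralizer (S : Set (G ⧸ Cfsg.pCore 2 G)) = ⊥ ∧ 2 ∣ Nat.card S := by
  have hn := Lib.Cores.pCore_normal (G := G) 2
  have hCIT : IsCIT G := isCIT_of_no_order h2
  have hns : ¬ Group.IsSolvable G := by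
    intro hsol
    rcases Lucido.lucido hsol Nat.prime_two hr hs (Ne.symm hr2) (Ne.symm hs2) hrs h2G hrG hsG with
      h | h | h
    · exact h2 r hr hr2 h
    · exact h2 s hs hs2 h
    · exact hno h
  have hp := Lib.Cores.pCore_isPGroup (G := G) 2
  have : Fact (Nat.Prime 2) := ⟨Nat.prime_two⟩
  have hQ : IsCIT (G ⧸ Cfsg.pCore 2 G) := LieExceptional.CITFFAux.quotient_isCIT hCIT _ hp
  have hQs : ¬ Group.IsSolvable (G ⧸ Cfsg.pCore 2 G) := by
    intro hsol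
    apply hns
    have h3 : Group.IsNilpotent (Cfsg.pCore 2 G) := hp.isNilpotent
    exact (Group.isSolvable_iff_subgroup_quotient (Cfsg.pCore 2 G)).2 ⟨inferInstance, hsol⟩
  refine ⟨hQ, ?_⟩
  obtain ⟨S, h3, h4, h5, h6⟩ := exists_simple (fun K _ _ hK => Cfsg.Agent.S0205.result hK) hQ hQs
    (Lib.Cores.pCore_quotient_pCore 2)
  refine ⟨S, h3, h4, h5, h6, ?_⟩
  by_contra h2S
  obtain ⟨a, b, hab⟩ := h5
  have hsol : Group.IsSolvable S := Cfsg.Agent.S0205.result (odd_card_of_coprime h2S)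
  exact hab ((IsSimpleGroup.comm_iff_isSolvable.2 hsol) a b)

/-- the Suzuki case -/
theorem one_class_suzuki {H : Type u} [Group H] [Finite H] (S : Subgroup H) [hS : S.Normal]
    (h : Cfsg.Lie.IsoSuzuki S) (h2 : 2 ∣ Nat.card S) :
    ∃ t ∈ S, orderOf t = 2 ∧ ∀ s ∈ S, orderOf s = 2 → ∃ x ∈ S, x * t * x⁻¹ = s := by
  have : Fact (Nat.Prime 2) := ⟨Nat.prime_two⟩
  obtain ⟨t, ht⟩ := exists_prime_orderOf_dvd_card' 2 h2
  refine ⟨t, t.2, by rw [Subgroup.orderOf_coe]; exact ht, fun s hs hs2 => ?_⟩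
  have key : ∀ a : S, orderOf a = 2 → a * a = 1 ∧ a ≠ 1 := by
    intro a ha
    refine ⟨?_, ?_⟩
    · rw [← pow_two, ← ha]; exact pow_orderOf_eq_one a
    · rintro rfl; rw [orderOf_one] at ha; omega
  obtain ⟨h3, h4⟩ := key t ht
  obtain ⟨h5, h6⟩ := key ⟨s, hs⟩ (by rw [← Subgroup.orderOf_coe]; exact hs2)
  obtain ⟨g, hg⟩ := OddCyclic.FFSz.conj_inv h h3 h4 h5 h6
  exact ⟨g, g.2, congrArg Subtype.val hg⟩

end Cfsg.Agent.H431.CIT
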